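import Cfsg.Agent.Lib.Helper35.TitsPOrd.X0.Chk0

namespace Cfsg.Agent.Lib.Helper35.TitsPOrd.X0

open Cfsg.Agent.Lib.Helper35

noncomputable def reach0 : ReachData TitsP1755.pt 1754 [[0], [1], [2], [3], [4], [5]] 0 1755 where
  sl := sl0
  hsl := rfl
  ot := ot0
  big := 9
  hchk := q0u0
  hcnt := m0n0
theorem fix0 : ∀ s ∈ ([[0], [1], [2], [3], [4]] : List (List Nat)), pwalk TitsP1755.pt s 0 = 0 := by decide +kernel
noncomputable def reach1 : ReachData TitsP1755.pt 1754 [[0], [1], [2], [3], [4]] 1477 1024 where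
  sl := sl1
  hsl := rfl
  ot := ot1
  big := 8
  hchk := q1u0
  hcnt := m1n0
theorem fix1 : ∀ s ∈ ([[0], [1]] : List (List Nat)), pwalk TitsP1755.pt s 1477 = 1477 := by decide +kernel
noncomputable def reach2 : ReachData TitsP1755.pt 1754 [[0], [1]] 1459 10 where
  sl := sl2
  hsl := rfl
  ot := ot2
  big := 6
  hchk := q2u0
  hcnt := m2n0
theorem fix2 : ∀ s ∈ ([] : List (List Nat)), pwalk TitsP1755.pt s 1459 = 1459 := by decide +kernel
theorem yfix0 : ∀ i, i < 1755 → pwalk TitsP1755.pt yl0.W i = i := fun i hi => fix_of_leaves' [yl0] 1755 y0u0 yl0.W (by simp) i hi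

end Cfsg.Agent.Lib.Helper35.TitsPOrd.X0
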